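import Mathlib

/-!
# Alternating sums over chains of `p`-subgroups

For a finite group `G` and functions of the stabilizer `stab s = ⋂ N_G(Q)` (`Q ∈ s`) of a chain `s` of
nontrivial `p`-subgroups:

* `sum_chains_eq_sum_normalChains`: the alternating sum over all nonempty chains equals the one over
  the normal chains (every member normal in the largest one);
* `sum_chains_eq_single`: if `f (stab s)` vanishes unless the `p`-element `u ≠ 1` lies in `stab s`, and
  only depends on `stab s ⊓ C(u)`, then the alternating sum over all nonempty chains is the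
  contribution `f (N_G(⟨u⟩))` of the chain `{⟨u⟩}`.
-/

set_option autoImplicit false

namespace Cfsg.Agent.H643.ChainComb

open Classical

section Toggle

variable {α : Type*}

/-- Remove `R` from `s` or add it. -/
noncomputable def toggle (s : Finset α) (R : α) : Finset α :=
  if R ∈ s then s.erase R else insert R s

theorem toggle_of_mem {s : Finset α} {R : α} (h : R ∈ s) : toggle s R = s.erase R := if_pos h

theorem toggle_of_notMem {s : Finset α} {R : α} (h : R ∉ s) : toggle s R = insert R s := if_neg h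

theorem toggle_toggle (s : Finset α) (R : α) : toggle (toggle s R) R = s := by
  by_cases h : R ∈ s
  · rw [toggle_of_mem h, toggle_of_notMem (Finset.notMem_erase R s), Finset.insert_erase h]
  · rw [toggle_of_notMem h, toggle_of_mem (Finset.mem_insert_self R s), Finset.erase_insert h]

theorem toggle_ne (s : Finset α) (R : α) : toggle s R ≠ s := by
  by_cases h : R ∈ s
  · rw [toggle_of_mem h]
    intro h'
    exact Finset.notMem_erase R s (h'.symm ▸ h)
  · rw [toggle_of_notMem h]
    intro h'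
    exact h (h' ▸ Finset.mem_insert_self R s)

theorem mem_toggle_of_ne {s : Finset α} {R x : α} (h : x ≠ R) : x ∈ toggle s R ↔ x ∈ s := by
  by_cases hR : R ∈ s
  · rw [toggle_of_mem hR, Finset.mem_erase]
    exact ⟨fun h' => h'.2, fun h' => ⟨h, h'⟩⟩
  · rw [toggle_of_notMem hR, Finset.mem_insert]
    exact ⟨fun h' => h'.resolve_left h, Or.inr⟩

theorem sign_toggle {s : Finset α} {R : α} (h1 : s.Nonempty) (h2 : (toggle s R).Nonempty) :
    (-1 : ℂ) ^ ((toggle s R).card - 1) = - (-1 : ℂ) ^ (s.card - 1) := by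
  have hs := Finset.card_pos.2 h1
  have ht := Finset.card_pos.2 h2
  by_cases h : R ∈ s
  · rw [toggle_of_mem h] at ht ⊢
    have h3 := Finset.card_erase_of_mem h
    obtain ⟨k, hk⟩ : ∃ k, s.card = k + 2 := ⟨s.card - 2, by omega⟩
    rw [h3, hk]
    have e1 : k + 2 - 1 - 1 = k := by omega
    have e2 : k + 2 - 1 = k + 1 := by omega
    rw [e1, e2, pow_succ]
    ring
  · rw [toggle_of_notMem h, Finset.card_insert_of_notMem h]
    obtain ⟨k, hk⟩ : ∃ k, s.card = k + 1 := ⟨s.card - 1, by omega⟩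
    rw [hk]
    have e1 : k + 1 + 1 - 1 = k + 1 := by omega
    have e2 : k + 1 - 1 = k := by omega
    rw [e1, e2, pow_succ]
    ring

end Toggle

variable {G : Type*} [Group G]

/-- `s` is a chain of nontrivial `p`-subgroups. -/
def IsCh (p : ℕ) (s : Finset (Subgroup G)) : Prop :=
  (∀ Q ∈ s, ∀ R ∈ s, Q ≤ R ∨ R ≤ Q) ∧ ∀ Q ∈ s, Q ≠ ⊥ ∧ IsPGroup p Q

/-- The stabilizer of a chain. -/
def stab (s : Finset (Subgroup G)) : Subgroup G := ⨅ Q ∈ s, Subgroup.normalizer (Q : Set G)

theorem mem_stab {s : Finset (Subgroup G)} {g : G} :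
    g ∈ stab s ↔ ∀ Q ∈ s, g ∈ Subgroup.normalizer (Q : Set G) := by
  unfold stab
  simp only [Subgroup.mem_iInf]

/-- The member `T` does not normalize some smaller member. -/
def Bad (s : Finset (Subgroup G)) (T : Subgroup G) : Prop :=
  ∃ Q ∈ s, Q ≤ T ∧ ¬ T ≤ Subgroup.normalizer (Q : Set G)

/-- `T` is the smallest bad member of `s` and `R` is the subgroup of `T` normalizing all the members of
`s` below `T`. -/
def IsData (s : Finset (Subgroup G)) (T R : Subgroup G) : Prop :=
  T ∈ s ∧ Bad s T ∧ (∀ T' ∈ s, T' < T → ¬ Bad s T') ∧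
    R = T ⊓ ⨅ Q ∈ s.filter (· < T), Subgroup.normalizer (Q : Set G)

theorem mem_data {s : Finset (Subgroup G)} {T R : Subgroup G} (h : IsData s T R) {g : G} :
    g ∈ R ↔ g ∈ T ∧ ∀ Q ∈ s, Q < T → g ∈ Subgroup.normalizer (Q : Set G) := by
  rw [h.2.2.2, Subgroup.mem_inf]
  simp only [Subgroup.mem_iInf, Finset.mem_filter, and_imp]

theorem exists_isData {s : Finset (Subgroup G)}
    (hb : ∃ T ∈ s, Bad s T) : ∃ T R, IsData s T R := by
  obtain ⟨T0, hT0, hT0b⟩ := hb
  have hne : (s.filter (Bad s)).Nonempty := ⟨T0, Finset.mem_filter.2 ⟨hT0, hT0b⟩⟩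
  obtain ⟨T, hT⟩ := Finset.exists_minimal hne
  refine ⟨T, _, (Finset.mem_filter.1 hT.1).1, (Finset.mem_filter.1 hT.1).2, ?_, rfl⟩
  intro T' hT' hlt hbad
  exact absurd (hT.2 (Finset.mem_filter.2 ⟨hT', hbad⟩) hlt.le) hlt.not_ge

theorem isData_unique {p : ℕ} {s : Finset (Subgroup G)} (hs : IsCh p s) {T R T' R' : Subgroup G}
    (h : IsData s T R) (h' : IsData s T' R') : R = R' := by
  have hT : T = T' := by
    rcases hs.1 T h.1 T' h'.1 with h1 | h1
    · rcases h1.eq_or_lt with h2 | h2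
      · exact h2
      · exact absurd h.2.1 (h'.2.2.1 T h.1 h2)
    · rcases h1.eq_or_lt with h2 | h2
      · exact h2.symm
      · exact absurd h'.2.1 (h.2.2.1 T' h'.1 h2)
  subst hT
  rw [h.2.2.2, h'.2.2.2]

section Data

variable {p : ℕ} {s : Finset (Subgroup G)} {T R : Subgroup G}

theorem data_le (h : IsData s T R) : R ≤ T := fun _ hg => ((mem_data h).1 hg).1

theorem data_le_normalizer (h : IsData s T R) {Q : Subgroup G} (hQ : Q ∈ s) (hQT : Q < T) :
    R ≤ Subgroup.normalizer (Q : Set G) := fun _ hg => ((mem_data h).1 hg).2 Q hQ hQT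

theorem exists_below (h : IsData s T R) : ∃ Q ∈ s, Q < T ∧ ¬ T ≤ Subgroup.normalizer (Q : Set G) := by
  obtain ⟨Q, hQ, hQT, hN⟩ := h.2.1
  refine ⟨Q, hQ, lt_of_le_of_ne hQT ?_, hN⟩
  rintro rfl
  exact hN Subgroup.le_normalizer

theorem data_ne (h : IsData s T R) : R ≠ T := by
  rintro rfl
  obtain ⟨Q, hQ, hQT, hN⟩ := exists_below h
  exact hN (data_le_normalizer h hQ hQT)

theorem data_lt (h : IsData s T R) : R < T := lt_of_le_of_ne (data_le h) (data_ne h)

/-- The members below `T` lie in `R`. -/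
theorem le_data (hs : IsCh p s) (h : IsData s T R) {Q : Subgroup G} (hQ : Q ∈ s) (hQT : Q < T) :
    Q ≤ R := by
  intro g hg
  refine (mem_data h).2 ⟨hQT.le hg, fun Q' hQ' hQT' => ?_⟩
  rcases hs.1 Q hQ Q' hQ' with h1 | h1
  · exact Subgroup.le_normalizer (h1 hg)
  · by_contra h2
    exact h.2.2.1 Q hQ hQT ⟨Q', hQ', h1, fun h3 => h2 (h3 hg)⟩

theorem le_or_ge_data (hs : IsCh p s) (h : IsData s T R) {Q : Subgroup G} (hQ : Q ∈ s) :
    (Q < T ∧ Q ≤ R) ∨ (T ≤ Q ∧ R < Q) := by
  rcases hs.1 Q hQ T h.1 with h1 | h1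
  · rcases h1.eq_or_lt with h2 | h2
    · exact Or.inr ⟨h2.ge, h2 ▸ data_lt h⟩
    · exact Or.inl ⟨h2, le_data hs h hQ h2⟩
  · exact Or.inr ⟨h1, (data_lt h).trans_le h1⟩

theorem data_ne_bot (hs : IsCh p s) (h : IsData s T R) : R ≠ ⊥ := by
  obtain ⟨Q, hQ, hQT, -⟩ := exists_below h
  intro hR
  have := le_data hs h hQ hQT
  rw [hR, le_bot_iff] at this
  exact (hs.2 Q hQ).1 this

theorem data_isPGroup (hs : IsCh p s) (h : IsData s T R) : IsPGroup p R :=
  IsPGroup.of_injective (hs.2 T h.1).2 (Subgroup.inclusion (data_le h))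
    (Subgroup.inclusion_injective _)

/-- `s` with `R` added is a chain with the same data. -/
theorem isCh_insert (hs : IsCh p s) (h : IsData s T R) : IsCh p (insert R s) := by
  constructor
  · intro Q hQ Q' hQ'
    rcases Finset.mem_insert.1 hQ with e1 | hQ1
    · rcases Finset.mem_insert.1 hQ' with e2 | hQ1'
      · exact Or.inl (e1.trans e2.symm).le
      · rcases le_or_ge_data hs h hQ1' with h1 | h1
        · exact Or.inr (e1 ▸ h1.2)
        · exact Or.inl (e1 ▸ h1.2.le)
    · rcases Finset.mem_insert.1 hQ' with e2 | hQ1'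
      · rcases le_or_ge_data hs h hQ1 with h1 | h1
        · exact Or.inl (e2 ▸ h1.2)
        · exact Or.inr (e2 ▸ h1.2.le)
      · exact hs.1 Q hQ1 Q' hQ1'
  · intro Q hQ
    rcases Finset.mem_insert.1 hQ with rfl | hQ
    · exact ⟨data_ne_bot hs h, data_isPGroup hs h⟩
    · exact hs.2 Q hQ

theorem isData_insert (hs : IsCh p s) (h : IsData s T R) : IsData (insert R s) T R := by
  refine ⟨Finset.mem_insert_of_mem h.1, ?_, ?_, ?_⟩
  · obtain ⟨Q, hQ, hQT, hN⟩ := h.2.1
    exact ⟨Q, Finset.mem_insert_of_mem hQ, hQT, hN⟩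
  · intro T' hT' hlt hbad
    obtain ⟨Q, hQ, hQT', hN⟩ := hbad
    rcases Finset.mem_insert.1 hT' with e1 | hT1
    · rcases Finset.mem_insert.1 hQ with e2 | hQ1
      · apply hN
        rw [e1, e2]
        exact Subgroup.le_normalizer
      · apply hN
        rw [e1]
        exact data_le_normalizer h hQ1 (hQT'.trans_lt hlt)
    · rcases Finset.mem_insert.1 hQ with e2 | hQ1
      · have h1 : T' = Q := le_antisymm (e2 ▸ le_data hs h hT1 hlt) hQT'
        apply hN
        rw [h1]
        exact Subgroup.le_normalizer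
      · exact h.2.2.1 T' hT1 hlt ⟨Q, hQ1, hQT', hN⟩
  · ext g
    rw [Subgroup.mem_inf]
    simp only [Subgroup.mem_iInf, Finset.mem_filter, and_imp, Finset.mem_insert, forall_eq_or_imp]
    rw [mem_data h]
    constructor
    · rintro ⟨h1, h2⟩
      exact ⟨h1, fun _ => Subgroup.le_normalizer ((mem_data h).2 ⟨h1, h2⟩), h2⟩
    · rintro ⟨h1, -, h2⟩
      exact ⟨h1, h2⟩

theorem isCh_erase (hs : IsCh p s) (R : Subgroup G) : IsCh p (s.erase R) :=
  ⟨fun Q hQ Q' hQ' => hs.1 Q (Finset.mem_of_mem_erase hQ) Q' (Finset.mem_of_mem_erase hQ'),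
    fun Q hQ => hs.2 Q (Finset.mem_of_mem_erase hQ)⟩

/-- The normalizer condition: a `p`-subgroup `R` of a finite `p`-group `W` with `W ⊓ N(R) ≤ R` is `W`. -/
theorem eq_of_normalizer [Finite G] [Fact p.Prime] {W R : Subgroup G} (hW : IsPGroup p W)
    (hRW : R ≤ W) (h : W ⊓ Subgroup.normalizer (R : Set G) ≤ R) : R = W := by
  have hnil : Group.IsNilpotent W := hW.isNilpotent
  have hnc := Group.normalizerCondition_of_isNilpotent (G := W)
  by_contra hne
  have hlt : R.subgroupOf W < ⊤ := by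
    rw [lt_top_iff_ne_top]
    intro h1
    rw [Subgroup.subgroupOf_eq_top] at h1
    exact hne (le_antisymm hRW h1)
  have h2 := hnc _ hlt
  obtain ⟨x, hx, hxR⟩ := SetLike.exists_of_lt h2
  apply hxR
  rw [Subgroup.mem_subgroupOf]
  apply h
  refine Subgroup.mem_inf.2 ⟨x.2, ?_⟩
  rw [Subgroup.mem_normalizer_iff] at hx ⊢
  intro g
  constructor
  · intro hg
    have := (hx ⟨g, hRW hg⟩).1 hg
    exact this
  · intro hg
    have hgW : g ∈ W := by
      have h3 : (x : G) * g * (x : G)⁻¹ ∈ W := hRW hg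
      have h4 := W.mul_mem (W.mul_mem (W.inv_mem x.2) h3) x.2
      simpa [mul_assoc] using h4
    exact (hx ⟨g, hgW⟩).2 hg

theorem isData_erase [Finite G] [Fact p.Prime] (hs : IsCh p s) (h : IsData s T R) :
    IsData (s.erase R) T R := by
  by_cases hRs : R ∈ s
  swap
  · rwa [Finset.erase_eq_of_notMem hRs]
  have hTs : T ∈ s.erase R := Finset.mem_erase.2 ⟨(data_ne h).symm, h.1⟩
  set W : Subgroup G := T ⊓ ⨅ Q ∈ (s.erase R).filter (· < T), Subgroup.normalizer (Q : Set G)
    with hW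
  have hWm : ∀ g, g ∈ W ↔ g ∈ T ∧ ∀ Q ∈ s, Q ≠ R → Q < T → g ∈ Subgroup.normalizer (Q : Set G) := by
    intro g
    rw [hW, Subgroup.mem_inf]
    simp only [Subgroup.mem_iInf, Finset.mem_filter, and_imp, Finset.mem_erase]
    exact ⟨fun h => ⟨h.1, fun Q h1 h2 h3 => h.2 Q h2 h1 h3⟩,
      fun h => ⟨h.1, fun Q h1 h2 h3 => h.2 Q h2 h1 h3⟩⟩
  have hWR : R = W := by
    refine eq_of_normalizer (p := p) ?_ ?_ ?_
    · exact IsPGroup.of_injective (hs.2 T h.1).2
        (Subgroup.inclusion (show W ≤ T from fun g hg => ((hWm g).1 hg).1))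
        (Subgroup.inclusion_injective _)
    · intro g hg
      have h1 := (mem_data h).1 hg
      exact (hWm g).2 ⟨h1.1, fun Q hQ _ hQT => h1.2 Q hQ hQT⟩
    · intro g hg
      rw [mem_data h]
      have h1 := (hWm g).1 hg.1
      refine ⟨h1.1, fun Q hQ hQT => ?_⟩
      by_cases hQR : Q = R
      · subst hQR
        exact hg.2
      · exact h1.2 Q hQ hQR hQT
  refine ⟨hTs, ?_, ?_, hWR⟩
  · by_contra hnb
    apply data_ne h
    rw [hWR]
    refine le_antisymm (fun g hg => ((hWm g).1 hg).1) fun g hg => (hWm g).2 ⟨hg, ?_⟩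
    intro Q hQ hQR hQT
    by_contra h3
    exact hnb ⟨Q, Finset.mem_erase.2 ⟨hQR, hQ⟩, hQT.le, fun h4 => h3 (h4 hg)⟩
  · rintro T' hT' hlt ⟨Q, hQ, h1, h2⟩
    exact h.2.2.1 T' (Finset.mem_of_mem_erase hT') hlt
      ⟨Q, Finset.mem_of_mem_erase hQ, h1, h2⟩

theorem isCh_toggle (hs : IsCh p s) (h : IsData s T R) : IsCh p (toggle s R) := by
  by_cases hR : R ∈ s
  · rw [toggle_of_mem hR]; exact isCh_erase hs R
  · rw [toggle_of_notMem hR]; exact isCh_insert hs h

theorem isData_toggle [Finite G] [Fact p.Prime] (hs : IsCh p s) (h : IsData s T R) :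
    IsData (toggle s R) T R := by
  by_cases hR : R ∈ s
  · rw [toggle_of_mem hR]; exact isData_erase hs h
  · rw [toggle_of_notMem hR]; exact isData_insert hs h

end Data

theorem mem_normalizer_iff_conj {Q : Subgroup G} {g : G} :
    g ∈ Subgroup.normalizer (Q : Set G) ↔ ∀ x, x ∈ Q ↔ g * x * g⁻¹ ∈ Q :=
  Subgroup.mem_normalizer_iff

/-- The elements normalizing `Q` normalize its normalizer. -/
theorem mem_normalizer_normalizer {Q : Subgroup G} {g : G}
    (hg : g ∈ Subgroup.normalizer (Q : Set G)) (x : G) :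
    x ∈ Subgroup.normalizer (Q : Set G) ↔ g * x * g⁻¹ ∈ Subgroup.normalizer (Q : Set G) := by
  constructor
  · intro hx
    exact Subgroup.mul_mem _ (Subgroup.mul_mem _ hg hx) (Subgroup.inv_mem _ hg)
  · intro hx
    have := Subgroup.mul_mem _ (Subgroup.mul_mem _ (Subgroup.inv_mem _ hg) hx) hg
    simpa [mul_assoc] using this

theorem stab_insert (s : Finset (Subgroup G)) (R : Subgroup G)
    (h : ∀ g ∈ stab s, g ∈ Subgroup.normalizer (R : Set G)) : stab (insert R s) = stab s := by
  ext g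
  rw [mem_stab, mem_stab]
  simp only [Finset.mem_insert, forall_eq_or_imp]
  exact ⟨fun h1 => h1.2, fun h1 => ⟨h g (mem_stab.2 h1), h1⟩⟩

theorem data_stab {s : Finset (Subgroup G)} {T R : Subgroup G} (h : IsData s T R) :
    ∀ g ∈ stab s, g ∈ Subgroup.normalizer (R : Set G) := by
  intro g hg
  rw [mem_stab] at hg
  rw [mem_normalizer_iff_conj]
  intro x
  rw [mem_data h, mem_data h, (mem_normalizer_iff_conj.1 (hg T h.1) x)]
  refine and_congr_right fun _ => forall_congr' fun Q => forall_congr' fun hQ =>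
    forall_congr' fun _ => ?_
  exact mem_normalizer_normalizer (hg Q hQ) x

theorem stab_toggle_data [Finite G] {p : ℕ} [Fact p.Prime] {s : Finset (Subgroup G)}
    (hs : IsCh p s) {T R : Subgroup G} (h : IsData s T R) : stab (toggle s R) = stab s := by
  by_cases hR : R ∈ s
  · have h1 := stab_insert _ R (data_stab (isData_erase hs h))
    rw [toggle_of_mem hR, ← h1, Finset.insert_erase hR]
  · rw [toggle_of_notMem hR]
    exact stab_insert s R (data_stab h)

/-- The chain is normal. -/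
def IsNormalCh (s : Finset (Subgroup G)) : Prop :=
  ∃ T ∈ s, ∀ Q ∈ s, Q ≤ T ∧ T ≤ Subgroup.normalizer (Q : Set G)

theorem exists_max {p : ℕ} {s : Finset (Subgroup G)} (hs : IsCh p s) (hne : s.Nonempty) :
    ∃ T ∈ s, ∀ Q ∈ s, Q ≤ T := by
  obtain ⟨T, hT⟩ := Finset.exists_maximal hne
  refine ⟨T, hT.1, fun Q hQ => ?_⟩
  rcases hs.1 Q hQ T hT.1 with h1 | h1
  · exact h1
  · exact hT.2 hQ h1

theorem exists_bad_iff {p : ℕ} {s : Finset (Subgroup G)} (hs : IsCh p s) (hne : s.Nonempty) :
    (∃ T ∈ s, Bad s T) ↔ ¬ IsNormalCh s := by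
  constructor
  · rintro ⟨T, hT, Q, hQ, hQT, hN⟩ ⟨T', hT', h⟩
    exact hN ((h T hT).1.trans (h Q hQ).2)
  · intro h
    obtain ⟨T, hT, hmax⟩ := exists_max hs hne
    by_contra hb
    push Not at hb
    refine h ⟨T, hT, fun Q hQ => ⟨hmax Q hQ, ?_⟩⟩
    by_contra h1
    exact hb T hT ⟨Q, hQ, hmax Q hQ, h1⟩

variable [Finite G]

noncomputable local instance instFintypeSubgroup : Fintype (Subgroup G) := Fintype.ofFinite _

/-- All nonempty chains. -/
noncomputable def chains (p : ℕ) (G : Type*) [Group G] [Finite G] : Finset (Finset (Subgroup G)) :=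
  Finset.univ.filter fun s => s.Nonempty ∧ IsCh p s

theorem mem_chains {p : ℕ} {s : Finset (Subgroup G)} : s ∈ chains p G ↔ s.Nonempty ∧ IsCh p s := by
  unfold chains
  rw [Finset.mem_filter]
  exact ⟨fun h => h.2, fun h => ⟨Finset.mem_univ _, h⟩⟩

/-- The non-normal chains cancel. -/
theorem sum_nonNormal (p : ℕ) [Fact p.Prime] (f : Subgroup G → ℂ) :
    ∑ s ∈ (chains p G).filter (fun s => ¬ IsNormalCh s), (-1 : ℂ) ^ (s.card - 1) * f (stab s) = 0 := by
  have hdata : ∀ s ∈ (chains p G).filter (fun s => ¬ IsNormalCh s), ∃ R : Subgroup G,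
      ∃ T, IsData s T R := by
    intro s hs
    rw [Finset.mem_filter, mem_chains] at hs
    obtain ⟨T, R, h⟩ := exists_isData ((exists_bad_iff hs.1.2 hs.1.1).2 hs.2)
    exact ⟨R, T, h⟩
  choose! R hR using hdata
  have hmem : ∀ s ∈ (chains p G).filter (fun s => ¬ IsNormalCh s),
      toggle s (R s) ∈ (chains p G).filter (fun s => ¬ IsNormalCh s) := by
    intro s hs
    obtain ⟨T, hT⟩ := hR s hs
    rw [Finset.mem_filter, mem_chains] at hs ⊢
    have h1 := isData_toggle hs.1.2 hT
    have h2 := isCh_toggle hs.1.2 hT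
    have h3 : (toggle s (R s)).Nonempty := ⟨T, h1.1⟩
    exact ⟨⟨h3, h2⟩, (exists_bad_iff h2 h3).1 ⟨T, h1.1, h1.2.1⟩⟩
  have hRR : ∀ s ∈ (chains p G).filter (fun s => ¬ IsNormalCh s), R (toggle s (R s)) = R s := by
    intro s hs
    obtain ⟨T, hT⟩ := hR s hs
    obtain ⟨T', hT'⟩ := hR _ (hmem s hs)
    have hs' := hs
    rw [Finset.mem_filter, mem_chains] at hs'
    exact isData_unique (isCh_toggle hs'.1.2 hT) hT' (isData_toggle hs'.1.2 hT)
  refine Finset.sum_involution (fun s _ => toggle s (R s)) ?_ ?_ hmem ?_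
  · intro s hs
    obtain ⟨T, hT⟩ := hR s hs
    have hs2 := hmem s hs
    rw [Finset.mem_filter, mem_chains] at hs hs2
    rw [stab_toggle_data hs.1.2 hT, sign_toggle hs.1.1 hs2.1.1]
    ring
  · intro s _ _
    exact toggle_ne s _
  · intro s hs
    rw [hRR s hs, toggle_toggle]

/-- Only the normal chains count. -/
theorem sum_chains_eq_sum_normalChains (p : ℕ) [Fact p.Prime] (f : Subgroup G → ℂ) :
    ∑ s ∈ chains p G, (-1 : ℂ) ^ (s.card - 1) * f (stab s) =
      ∑ s ∈ (chains p G).filter IsNormalCh, (-1 : ℂ) ^ (s.card - 1) * f (stab s) := by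
  rw [← Finset.sum_filter_add_sum_filter_not (chains p G) IsNormalCh, sum_nonNormal, add_zero]

section Fixed

variable {p : ℕ}

/-- The subgroup that is added or removed: the largest member not containing `u`, together with `u`. -/
noncomputable def uR (u : G) (s : Finset (Subgroup G)) : Subgroup G :=
  (s.filter (fun Q => u ∉ Q)).sup id ⊔ Subgroup.zpowers u

omit [Finite G] in
theorem mem_uR (u : G) (s : Finset (Subgroup G)) : u ∈ uR u s :=
  (le_sup_right : Subgroup.zpowers u ≤ uR u s) (Subgroup.mem_zpowers u)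

omit [Finite G] in
theorem uR_congr {u : G} {s s' : Finset (Subgroup G)}
    (h : ∀ Q, u ∉ Q → (Q ∈ s ↔ Q ∈ s')) : uR u s = uR u s' := by
  unfold uR
  congr 2
  ext Q
  rw [Finset.mem_filter, Finset.mem_filter]
  constructor
  · rintro ⟨h1, h2⟩; exact ⟨(h Q h2).1 h1, h2⟩
  · rintro ⟨h1, h2⟩; exact ⟨(h Q h2).2 h1, h2⟩

omit [Finite G] in
theorem uR_toggle (u : G) (s : Finset (Subgroup G)) : uR u (toggle s (uR u s)) = uR u s := by
  refine uR_congr fun Q hQ => mem_toggle_of_ne ?_
  rintro rfl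
  exact hQ (mem_uR u s)

omit [Finite G] in
/-- The largest member not containing `u`, or the trivial subgroup. -/
theorem sup_mem {s : Finset (Subgroup G)} (hs : IsCh p s) (u : G) :
    ((s.filter (fun Q => u ∉ Q)).sup id = ⊥ ∧ s.filter (fun Q => u ∉ Q) = ∅) ∨
      ((s.filter (fun Q => u ∉ Q)).sup id ∈ s ∧ u ∉ (s.filter (fun Q => u ∉ Q)).sup id) := by
  rcases (s.filter (fun Q => u ∉ Q)).eq_empty_or_nonempty with h | h
  · left
    rw [h]
    exact ⟨Finset.sup_empty, rfl⟩
  · right
    obtain ⟨T, hT⟩ := Finset.exists_maximal h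
    have hT1 := Finset.mem_filter.1 hT.1
    have hmax : ∀ Q ∈ s.filter (fun Q => u ∉ Q), Q ≤ T := by
      intro Q hQ
      rcases hs.1 Q (Finset.mem_filter.1 hQ).1 T hT1.1 with h1 | h1
      · exact h1
      · exact hT.2 hQ h1
    have h2 : (s.filter (fun Q => u ∉ Q)).sup id = T :=
      le_antisymm (Finset.sup_le hmax) (Finset.le_sup (f := id) hT.1)
    rw [h2]
    exact hT1

omit [Finite G] in
theorem le_or_ge_uR {s : Finset (Subgroup G)} (hs : IsCh p s) (u : G) {Q : Subgroup G}
    (hQ : Q ∈ s) : Q ≤ uR u s ∨ uR u s ≤ Q := by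
  by_cases hu : u ∈ Q
  · right
    unfold uR
    refine sup_le ?_ ((Subgroup.zpowers_le).2 hu)
    refine Finset.sup_le fun Q' hQ' => ?_
    have h1 := Finset.mem_filter.1 hQ'
    rcases hs.1 Q' h1.1 Q hQ with h2 | h2
    · exact h2
    · exact absurd (h2 hu) h1.2
  · left
    exact (Finset.le_sup (f := id) (Finset.mem_filter.2 ⟨hQ, hu⟩)).trans le_sup_left

omit [Finite G] in
theorem uR_ne_bot {u : G} (hu : u ≠ 1) (s : Finset (Subgroup G)) : uR u s ≠ ⊥ := by
  intro h
  have := mem_uR u s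
  rw [h, Subgroup.mem_bot] at this
  exact hu this

omit [Finite G] in
theorem isPGroup_uR [Fact p.Prime] {s : Finset (Subgroup G)} (hs : IsCh p s) {u : G}
    (hu : IsPGroup p (Subgroup.zpowers u)) (hus : u ∈ stab s) : IsPGroup p (uR u s) := by
  rw [mem_stab] at hus
  unfold uR
  rcases sup_mem hs u with h | h
  · rw [h.1, bot_sup_eq]
    exact hu
  · refine IsPGroup.to_sup_of_normal_left' (hs.2 _ h.1).2 hu ?_
    exact (Subgroup.zpowers_le).2 (hus _ h.1)

omit [Finite G] in
theorem isCh_toggle_uR [Fact p.Prime] {s : Finset (Subgroup G)} (hs : IsCh p s) {u : G}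
    (hu1 : u ≠ 1) (hu : IsPGroup p (Subgroup.zpowers u)) (hus : u ∈ stab s) :
    IsCh p (toggle s (uR u s)) := by
  by_cases h : uR u s ∈ s
  · rw [toggle_of_mem h]
    exact isCh_erase hs _
  · rw [toggle_of_notMem h]
    constructor
    · intro Q hQ Q' hQ'
      rcases Finset.mem_insert.1 hQ with rfl | hQ
      · rcases Finset.mem_insert.1 hQ' with rfl | hQ'
        · exact Or.inl le_rfl
        · exact (le_or_ge_uR hs u hQ').symm
      · rcases Finset.mem_insert.1 hQ' with rfl | hQ'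
        · exact le_or_ge_uR hs u hQ
        · exact hs.1 Q hQ Q' hQ'
    · intro Q hQ
      rcases Finset.mem_insert.1 hQ with rfl | hQ
      · exact ⟨uR_ne_bot hu1 s, isPGroup_uR hs hu hus⟩
      · exact hs.2 Q hQ

omit [Finite G] in
/-- An element normalizing two subgroups normalizes their join. -/
theorem mem_normalizer_sup {A B : Subgroup G} {g : G} (hA : g ∈ Subgroup.normalizer (A : Set G))
    (hB : g ∈ Subgroup.normalizer (B : Set G)) :
    g ∈ Subgroup.normalizer ((A ⊔ B : Subgroup G) : Set G) := by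
  have key : ∀ h : G, h ∈ Subgroup.normalizer (A : Set G) → h ∈ Subgroup.normalizer (B : Set G) →
      ∀ x ∈ A ⊔ B, h * x * h⁻¹ ∈ A ⊔ B := by
    intro h hA hB x hx
    have h1 : (A ⊔ B) ≤ (A ⊔ B).comap (MulAut.conj h).toMonoidHom := by
      refine sup_le (fun a ha => ?_) (fun b hb => ?_)
      · change h * a * h⁻¹ ∈ A ⊔ B
        exact (le_sup_left : A ≤ A ⊔ B) ((mem_normalizer_iff_conj.1 hA a).1 ha)
      · change h * b * h⁻¹ ∈ A ⊔ B
        exact (le_sup_right : B ≤ A ⊔ B) ((mem_normalizer_iff_conj.1 hB b).1 hb)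
    exact h1 hx
  rw [mem_normalizer_iff_conj]
  intro x
  refine ⟨key g hA hB x, fun hx => ?_⟩
  have := key g⁻¹ (Subgroup.inv_mem _ hA) (Subgroup.inv_mem _ hB) _ hx
  simpa [mul_assoc] using this

omit [Finite G] in
theorem mem_normalizer_uR {s : Finset (Subgroup G)} (hs : IsCh p s) {u g : G}
    (hg : ∀ Q ∈ s, u ∉ Q → g ∈ Subgroup.normalizer (Q : Set G))
    (hgu : g ∈ Subgroup.centralizer ({u} : Set G)) :
    g ∈ Subgroup.normalizer ((uR u s : Subgroup G) : Set G) := by
  refine mem_normalizer_sup ?_ ?_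
  · rcases sup_mem hs u with h | h
    · rw [h.1]
      rw [mem_normalizer_iff_conj]
      intro x
      rw [Subgroup.mem_bot, Subgroup.mem_bot]
      constructor
      · rintro rfl; simp
      · intro h'; simpa using h'
    · exact hg _ h.1 h.2
  · rw [mem_normalizer_iff_conj]
    have hc : g * u * g⁻¹ = u := by
      rw [Subgroup.mem_centralizer_singleton_iff.1 hgu]; group
    have hc2 : ∀ k : ℤ, g * u ^ k * g⁻¹ = u ^ k := by
      intro k
      rw [← conj_zpow, hc]
    intro x
    constructor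
    · rintro ⟨k, rfl⟩
      exact ⟨k, (hc2 k).symm⟩
    · rintro ⟨k, hk⟩
      refine ⟨k, ?_⟩
      simp only at hk ⊢
      have h1 : x = g⁻¹ * u ^ k * g := by rw [hk]; group
      rw [h1]
      have h2 := hc2 k
      calc u ^ k = g⁻¹ * (g * u ^ k * g⁻¹) * g := by group
        _ = g⁻¹ * u ^ k * g := by rw [h2]

omit [Finite G] in
/-- Toggling does not change `stab s ⊓ C(u)`. -/
theorem stab_toggle_uR {s : Finset (Subgroup G)} (hs : IsCh p s)
    {u : G} :
    stab (toggle s (uR u s)) ⊓ Subgroup.centralizer ({u} : Set G) =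
      stab s ⊓ Subgroup.centralizer ({u} : Set G) := by
  have key : ∀ g ∈ Subgroup.centralizer ({u} : Set G),
      (∀ Q ∈ s, u ∉ Q → g ∈ Subgroup.normalizer (Q : Set G)) →
      g ∈ Subgroup.normalizer ((uR u s : Subgroup G) : Set G) :=
    fun g hg h => mem_normalizer_uR hs h hg
  ext g
  rw [Subgroup.mem_inf, Subgroup.mem_inf, mem_stab, mem_stab]
  refine and_congr_left fun hg => ?_
  constructor
  · intro h Q hQ
    by_cases hQR : Q = uR u s
    · subst hQR
      refine key g hg fun Q' hQ' huQ' => h Q' ((mem_toggle_of_ne ?_).2 hQ')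
      rintro rfl
      exact huQ' (mem_uR u s)
    · exact h Q ((mem_toggle_of_ne hQR).2 hQ)
  · intro h Q hQ
    by_cases hQR : Q = uR u s
    · subst hQR
      exact key g hg fun Q' hQ' _ => h Q' hQ'
    · exact h Q ((mem_toggle_of_ne hQR).1 hQ)

/-- The fixed-point sum. -/
theorem sum_chains_eq_single (p : ℕ) [Fact p.Prime] {u : G} (hu1 : u ≠ 1)
    (hu : IsPGroup p (Subgroup.zpowers u)) (f : Subgroup G → ℂ)
    (hf0 : ∀ H : Subgroup G, u ∉ H → f H = 0)
    (hf : ∀ H H' : Subgroup G, u ∈ H → u ∈ H' →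
      H ⊓ Subgroup.centralizer ({u} : Set G) = H' ⊓ Subgroup.centralizer ({u} : Set G) →
      f H = f H') :
    ∑ s ∈ chains p G, (-1 : ℂ) ^ (s.card - 1) * f (stab s) =
      f (Subgroup.normalizer ((Subgroup.zpowers u : Subgroup G) : Set G)) := by
  have hucc : u ∈ Subgroup.centralizer ({u} : Set G) := Subgroup.mem_centralizer_singleton_iff.2 rfl
  set s0 : Finset (Subgroup G) := {Subgroup.zpowers u} with hs0
  have hs0R : uR u s0 = Subgroup.zpowers u := by
    unfold uR
    have : s0.filter (fun Q => u ∉ Q) = ∅ := by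
      rw [Finset.filter_eq_empty_iff]
      intro Q hQ
      rw [hs0, Finset.mem_singleton] at hQ
      subst hQ
      exact not_not.2 (Subgroup.mem_zpowers u)
    rw [this, Finset.sup_empty, bot_sup_eq]
  have hRe : uR u (∅ : Finset (Subgroup G)) = Subgroup.zpowers u := by
    unfold uR
    rw [Finset.filter_empty, Finset.sup_empty, bot_sup_eq]
  have hstab0 : stab s0 = Subgroup.normalizer ((Subgroup.zpowers u : Subgroup G) : Set G) := by
    ext g
    rw [mem_stab, hs0]
    simp
  have hzb : Subgroup.zpowers u ≠ ⊥ := by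
    intro h
    exact hu1 (Subgroup.zpowers_eq_bot.1 h)
  have hs0mem : s0 ∈ chains p G := by
    rw [mem_chains]
    refine ⟨Finset.singleton_nonempty _, ?_, ?_⟩
    · intro Q hQ R hR
      rw [hs0, Finset.mem_singleton] at hQ hR
      subst hQ; subst hR
      exact Or.inl le_rfl
    · intro Q hQ
      rw [hs0, Finset.mem_singleton] at hQ
      subst hQ
      exact ⟨hzb, hu⟩
  rw [← Finset.sum_filter_add_sum_filter_not (chains p G) (fun s => u ∈ stab s)]
  have hz : ∑ s ∈ (chains p G).filter (fun s => ¬ u ∈ stab s),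
      (-1 : ℂ) ^ (s.card - 1) * f (stab s) = 0 := by
    refine Finset.sum_eq_zero fun s hs => ?_
    rw [hf0 _ (Finset.mem_filter.1 hs).2, mul_zero]
  rw [hz, add_zero]
  have hs0mem' : s0 ∈ (chains p G).filter (fun s => u ∈ stab s) := by
    rw [Finset.mem_filter]
    refine ⟨hs0mem, ?_⟩
    rw [hstab0]
    exact Subgroup.le_normalizer (Subgroup.mem_zpowers u)
  rw [← Finset.add_sum_erase _ _ hs0mem']
  have hcard : (-1 : ℂ) ^ (s0.card - 1) * f (stab s0) =
      f (Subgroup.normalizer ((Subgroup.zpowers u : Subgroup G) : Set G)) := by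
    rw [hstab0, hs0, Finset.card_singleton]
    simp
  rw [hcard]
  have hrest : ∑ s ∈ ((chains p G).filter (fun s => u ∈ stab s)).erase s0,
      (-1 : ℂ) ^ (s.card - 1) * f (stab s) = 0 := by
    have hmem : ∀ s ∈ ((chains p G).filter (fun s => u ∈ stab s)).erase s0,
        toggle s (uR u s) ∈ ((chains p G).filter (fun s => u ∈ stab s)).erase s0 := by
      intro s hs
      rw [Finset.mem_erase, Finset.mem_filter, mem_chains] at hs ⊢
      obtain ⟨h1, ⟨h2, h3⟩, h4⟩ := hs
      refine ⟨?_, ⟨?_, ?_⟩, ?_⟩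
      · intro h5
        have h6 : uR u s = Subgroup.zpowers u := by
          rw [← uR_toggle, h5, hs0R]
        have h7 := toggle_toggle s (uR u s)
        rw [h5, h6, toggle_of_mem (Finset.mem_singleton_self _), Finset.erase_singleton] at h7
        rw [← h7] at h2
        exact Finset.not_nonempty_empty h2
      · rw [Finset.nonempty_iff_ne_empty]
        intro h5
        have h6 : uR u s = Subgroup.zpowers u := by
          rw [← uR_toggle, h5, hRe]
        have h7 := toggle_toggle s (uR u s)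
        rw [h5, h6, toggle_of_notMem (Finset.notMem_empty _)] at h7
        exact h1 h7.symm
      · exact isCh_toggle_uR h3 hu1 hu h4
      · have h5 : u ∈ stab (toggle s (uR u s)) ⊓ Subgroup.centralizer ({u} : Set G) := by
          rw [stab_toggle_uR h3]
          exact ⟨h4, hucc⟩
        exact h5.1
    refine Finset.sum_involution (fun s _ => toggle s (uR u s)) ?_ ?_ hmem ?_
    · intro s hs
      have hs2 := hmem s hs
      rw [Finset.mem_erase, Finset.mem_filter, mem_chains] at hs hs2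
      rw [sign_toggle hs.2.1.1 hs2.2.1.1,
        hf _ _ hs2.2.2 hs.2.2 (stab_toggle_uR hs.2.1.2)]
      ring
    · intro s _ _
      exact toggle_ne s _
    · intro s _
      change toggle (toggle s (uR u s)) (uR u (toggle s (uR u s))) = s
      rw [uR_toggle, toggle_toggle]
  rw [hrest, add_zero]

end Fixed

end Cfsg.Agent.H643.ChainComb
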