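import Mathlib
import Cfsg.Prelude.Def_Blocks
import Cfsg.Prelude.Def_BlockRank
import Cfsg.Agent.H646.RankTrace
import Cfsg.Agent.H662.IrrTransport
import Cfsg.Agent.H643.ChainComb
import Cfsg.Agent.Blocks.CentralizerSum
import Cfsg.Agent.Blocks.PPart
import Cfsg.Agent.S0919

/-!
# Alternating sums of `k(B) - l(B)` over chains of `p`-subgroups

* `card_mul_diff`: `#H * (k(S) - l(S))` is the sum of `∑_{χ ∈ S} |χ(x)|²` over the elements `x` of order
  divisible by `p`, for a union `S` of blocks of `H`;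
* `val_section`: for `u ∈ H` a `p`-element and `y ∈ C_H(u)` `p`-regular, the sum of `|χ(u y)|²` over the
  characters of `H` in blocks inducing `b` is the sum of `|ψ(y)|²` over the characters of
  `C_H(u)` in blocks inducing `b` (second main theorem and transitivity of block induction);
* `main`: the alternating sum formula (S4651).
-/

set_option autoImplicit false

open Cfsg

namespace Cfsg.Agent.H643.ChainSum

open Cfsg.Agent.Blocks.Basic Cfsg.Agent.Blocks.Local
open Cfsg.Agent.H646.RegInner Cfsg.Agent.H646.RankTrace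
open Cfsg.Agent.H643.ChainComb
open scoped ComplexConjugate

/-! ### The rank of a union of blocks -/

section Rank

variable {G : Type*} [Group G] {p : ℕ} {M : Ideal AlgInt}

/-- `S` is a union of blocks. -/
def IsUnionB (M : Ideal AlgInt) (S : Set (IrrCharacter G)) : Prop :=
  ∀ χ ∈ S, ∀ ψ : IrrCharacter G, SameBlock M (χ : G → ℂ) (ψ : G → ℂ) → ψ ∈ S

theorem isUnionB_of_isPBlock [M.IsPrime] {B : Set (IrrCharacter G)} (hB : IsPBlock M B) :
    IsUnionB M B := by
  intro χ hχ ψ h
  exact isPBlock_mem_of_sameBlock hB hχ h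

variable [Fintype G]

open Classical in
theorem pRegularPart_eq_sum_union [M.IsPrime] (hM : IsPModular p M) [Fact p.Prime]
    {S : Set (IrrCharacter G)} (hS : IsUnionB M S) [Fintype (IrrCharacter G)]
    {χ : IrrCharacter G} (hχ : χ ∈ S) :
    pRegularPart p (χ : G → ℂ) = ∑ ψ : IrrCharacter G with ψ ∈ S,
      classInner (pRegularPart p (χ : G → ℂ)) (ψ : G → ℂ) • (ψ : G → ℂ) := by
  have hcl := isClassFunction_pRegularPart (p := p) (Blocks.Basic.irr_isClassFunction χ.2)
  conv_lhs => rw [Characters.Core.classFunction_eq_sum hcl]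
  rw [Finset.sum_filter]
  refine Finset.sum_congr rfl fun ψ _ => ?_
  split_ifs with h
  · rfl
  · have h2 : ψ ∉ blockOf M (χ : G → ℂ) := fun h3 => h (hS χ hχ ψ h3)
    rw [classInner_pRegularPart_eq_zero hM (isPBlock_blockOf χ) (mem_blockOf_self χ) h2, zero_smul]

open Classical in
theorem blockRank_eq_sum_union [M.IsPrime] (hM : IsPModular p M) [Fact p.Prime]
    {S : Set (IrrCharacter G)} (hS : IsUnionB M S) [Fintype (IrrCharacter G)] :
    (blockRank p S : ℂ) = ∑ ψ : IrrCharacter G with ψ ∈ S,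
      classInner (pRegularPart p (ψ : G → ℂ)) (ψ : G → ℂ) := by
  let E : (G → ℂ) →ₗ[ℂ] (G → ℂ) := ∑ ψ : IrrCharacter G with ψ ∈ S,
    (innerForm (ψ : G → ℂ)).smulRight (pRegularPart p (ψ : G → ℂ))
  have hE : ∀ f, E f = ∑ ψ : IrrCharacter G with ψ ∈ S,
      classInner f (ψ : G → ℂ) • pRegularPart p (ψ : G → ℂ) := by
    intro f
    rw [LinearMap.sum_apply]
    rfl
  have hproj : LinearMap.IsProj (regSpan p S) E := by
    refine ⟨fun f => ?_, fun f hf => ?_⟩
    · rw [hE]
      refine Submodule.sum_mem _ fun ψ hψ => Submodule.smul_mem _ _ (pRegularPart_mem_regSpan ?_)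
      simpa using hψ
    · refine Submodule.span_induction (p := fun f _ => E f = f) ?_ ?_ ?_ ?_ hf
      · rintro _ ⟨χ, hχ, rfl⟩
        have h1 := pRegularPart_eq_sum_union hM hS hχ
        have h2 : pRegularPart p (pRegularPart p (χ : G → ℂ)) = ∑ ψ : IrrCharacter G with ψ ∈ S,
            classInner (pRegularPart p (χ : G → ℂ)) (ψ : G → ℂ) • pRegularPart p (ψ : G → ℂ) := by
          conv_lhs => rw [h1, ← regMap_apply, map_sum]
          refine Finset.sum_congr rfl fun ψ _ => ?_
          rw [map_smul, regMap_apply]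
        rw [hE, ← h2, pRegularPart_pRegularPart]
      · exact map_zero E
      · intro x y _ _ hx hy
        rw [map_add, hx, hy]
      · intro c x _ hx
        rw [map_smul, hx]
  have htr := hproj.trace
  rw [blockRank_eq_finrank, ← htr, map_sum]
  refine Finset.sum_congr rfl fun ψ _ => ?_
  rw [LinearMap.trace_smulRight, innerForm_apply]

end Rank

/-- The sum of the squared absolute values at `x` over `S`. -/
noncomputable def nrm {G : Type*} [Group G] (S : Set (IrrCharacter G)) (x : G) : ℂ :=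
  ∑ᶠ χ ∈ S, (χ : G → ℂ) x * conj ((χ : G → ℂ) x)

open Classical in
/-- `#G * (k(S) - l(S))` as a sum over the elements of order divisible by `p`. -/
theorem card_mul_diff {G : Type*} [Group G] [Fintype G] {p : ℕ} {M : Ideal AlgInt}
    (hM : IsPModular p M) [Fact p.Prime] {S : Set (IrrCharacter G)} (hS : IsUnionB M S) :
    (Nat.card G : ℂ) * ((Nat.card S : ℂ) - (blockRank p S : ℂ)) =
      ∑ x : G with p ∣ orderOf x, nrm S x := by
  have := isPrime_of_isPModular hM
  have hfin : Finite (IrrCharacter G) := Characters.Core.finite_irr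
  have := Fintype.ofFinite (IrrCharacter G)
  have hne : (Nat.card G : ℂ) ≠ 0 := by exact_mod_cast Nat.card_pos.ne'
  have hn : ∀ x : G, nrm S x = ∑ χ : IrrCharacter G with χ ∈ S,
      (χ : G → ℂ) x * conj ((χ : G → ℂ) x) := by
    intro x
    unfold nrm
    rw [finsum_mem_eq_toFinset_sum]
    refine Finset.sum_congr ?_ fun _ _ => rfl
    ext; simp
  have h1 : (Nat.card G : ℂ) * (Nat.card S : ℂ) = ∑ x : G, nrm S x := by
    have e1 : ∀ χ : IrrCharacter G, ∑ x : G, (χ : G → ℂ) x * conj ((χ : G → ℂ) x) =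
        (Nat.card G : ℂ) := by
      intro χ
      have h := Characters.Core.classInner_irr_self χ.2
      rw [classInner_def] at h
      field_simp at h
      exact h
    simp_rw [hn]
    rw [Finset.sum_comm, Finset.sum_congr rfl fun χ _ => e1 χ, Finset.sum_const, nsmul_eq_mul,
      mul_comm]
    congr 2
    rw [Nat.card_eq_fintype_card, Fintype.card_subtype]
  have h2 : (Nat.card G : ℂ) * (blockRank p S : ℂ) =
      ∑ x : G, if p ∣ orderOf x then 0 else nrm S x := by
    rw [blockRank_eq_sum_union hM hS, Finset.mul_sum]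
    have e2 : ∀ x : G, (if p ∣ orderOf x then 0 else nrm S x) =
        ∑ χ : IrrCharacter G with χ ∈ S, pRegularPart p (χ : G → ℂ) x * conj ((χ : G → ℂ) x) := by
      intro x
      split_ifs with hx
      · symm
        refine Finset.sum_eq_zero fun χ _ => ?_
        rw [pRegularPart_of_dvd hx, zero_mul]
      · rw [hn]
        refine Finset.sum_congr rfl fun χ _ => ?_
        rw [pRegularPart_of_not_dvd hx]
    simp_rw [e2]
    rw [Finset.sum_comm]
    refine Finset.sum_congr rfl fun χ _ => ?_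
    rw [classInner_def, ← mul_assoc, mul_inv_cancel₀ hne, one_mul]
  rw [mul_sub, h1, h2, ← Finset.sum_sub_distrib, Finset.sum_filter]
  refine Finset.sum_congr rfl fun x _ => ?_
  split_ifs <;> simp

/-! ### Characters in blocks inducing `b` -/

section Ind

variable {G : Type*} [Group G] {M : Ideal AlgInt}

/-- The irreducible characters of `H` in blocks inducing `b`. -/
def indSet (M : Ideal AlgInt) (b : Set (IrrCharacter G)) (H : Subgroup G) :
    Set (IrrCharacter H) :=
  {ψ | ∃ β : Set (IrrCharacter H), ψ ∈ β ∧ IsInducedBlock M H β b}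

theorem mem_indSet_iff [M.IsPrime] {b : Set (IrrCharacter G)} {H : Subgroup G}
    {ψ : IrrCharacter H} :
    ψ ∈ indSet M b H ↔ IsInducedBlock M H (blockOf M (ψ : H → ℂ)) b := by
  constructor
  · rintro ⟨β, hψ, hβ⟩
    rw [← isPBlock_eq_blockOf hβ.1 hψ]
    exact hβ
  · intro h
    exact ⟨_, mem_blockOf_self ψ, h⟩

theorem isUnionB_indSet [M.IsPrime] (b : Set (IrrCharacter G)) (H : Subgroup G) :
    IsUnionB M (indSet M b H) := by
  intro χ hχ ψ h
  rw [mem_indSet_iff] at hχ ⊢
  rwa [← blockOf_eq_of_sameBlock h]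

open Classical in
/-- The sum of `|ψ(g)|²` over the characters of `H` in blocks inducing `b` (zero for `g ∉ H`). -/
noncomputable def val (M : Ideal AlgInt) (b : Set (IrrCharacter G)) (H : Subgroup G) (g : G) : ℂ :=
  if h : g ∈ H then nrm (indSet M b H) ⟨g, h⟩ else 0

theorem val_of_mem {b : Set (IrrCharacter G)} {H : Subgroup G} {g : G} (h : g ∈ H) :
    val M b H g = nrm (indSet M b H) ⟨g, h⟩ := dif_pos h

theorem val_of_notMem {b : Set (IrrCharacter G)} {H : Subgroup G} {g : G} (h : g ∉ H) :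
    val M b H g = 0 := dif_neg h

variable [Finite G] {p : ℕ} [Fact p.Prime]

/-- The blocks of the centralizer of a `p`-element induce. -/
theorem exists_induced (hM : IsPModular p M) {z : G} (hz : ∃ k : ℕ, orderOf z = p ^ k)
    (ξ : IrrCharacter (Subgroup.centralizer ({z} : Set G))) :
    ∃ B : Set (IrrCharacter G),
      IsInducedBlock M (Subgroup.centralizer ({z} : Set G))
        (blockOf M (ξ : Subgroup.centralizer ({z} : Set G) → ℂ)) B := by
  have := isPrime_of_isPModular hM
  obtain ⟨k, hk⟩ := hz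
  have hzH : z ∈ Subgroup.centralizer ({z} : Set G) := Subgroup.mem_centralizer_singleton_iff.2 rfl
  have hP : IsPGroup p (Subgroup.zpowers z) := by
    refine IsPGroup.of_card (n := k) ?_
    rw [Nat.card_zpowers, hk]
  have hcent : Subgroup.centralizer ((Subgroup.zpowers z : Subgroup G) : Set G) =
      Subgroup.centralizer ({z} : Set G) := by
    ext x
    rw [Subgroup.mem_centralizer_singleton_iff]
    constructor
    · intro h
      exact (Subgroup.mem_centralizer_iff.1 h z (Subgroup.mem_zpowers z)).symm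
    · intro h
      rw [Subgroup.mem_centralizer_iff]
      rintro w ⟨n, rfl⟩
      exact (show Commute z x from h.symm).zpow_left n
  exact S0919.result p M hM (Subgroup.zpowers z) _ hP
    ((Subgroup.zpowers_le).2 hzH) hcent.le
    (by rw [← hcent]; exact Subgroup.centralizer_le_normalizer _)
    (blockOf M (ξ : Subgroup.centralizer ({z} : Set G) → ℂ)) (isPBlock_blockOf ξ)

/-- The section formula for `G` itself. -/
theorem nrm_section (hM : IsPModular p M) {b : Set (IrrCharacter G)} (hb : IsPBlock M b)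
    {u y : G} (hu : ∃ k : ℕ, orderOf u = p ^ k) (hy : ¬ p ∣ orderOf y) (hc : Commute u y) :
    nrm b (u * y) = val M b (Subgroup.centralizer ({u} : Set G)) y := by
  have := isPrime_of_isPModular hM
  have hyC : y ∈ Subgroup.centralizer ({u} : Set G) :=
    Subgroup.mem_centralizer_singleton_iff.2 hc.eq.symm
  have hy' : ¬ p ∣ orderOf (⟨y, hyC⟩ : Subgroup.centralizer ({u} : Set G)) := by
    rwa [← Subgroup.orderOf_coe]
  rw [val_of_mem hyC]
  exact Blocks.CentralizerSum.sum_section hM u hu rfl hb (A := indSet M b _)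
    (fun ξ => mem_indSet_iff) ⟨y, hyC⟩ ⟨y, hyC⟩ hy' hy'

/-- The section formula for the characters of `H` in blocks inducing `b`. -/
theorem val_section (hM : IsPModular p M) {b : Set (IrrCharacter G)} {H : Subgroup G}
    {u y : G} (hu : ∃ k : ℕ, orderOf u = p ^ k) (hy : ¬ p ∣ orderOf y) (hc : Commute u y)
    (huH : u ∈ H) (hyH : y ∈ H) :
    val M b H (u * y) = val M b (H ⊓ Subgroup.centralizer ({u} : Set G)) y := by
  have := isPrime_of_isPModular hM
  set K : Subgroup G := H ⊓ Subgroup.centralizer ({u} : Set G) with hK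
  have hyC : y ∈ Subgroup.centralizer ({u} : Set G) :=
    Subgroup.mem_centralizer_singleton_iff.2 hc.eq.symm
  have hyK : y ∈ K := Subgroup.mem_inf.2 ⟨hyH, hyC⟩
  rw [val_of_mem (H.mul_mem huH hyH), val_of_mem hyK]
  -- the centralizer inside `H`
  set uH : H := ⟨u, huH⟩ with huH'
  set Z : Subgroup H := Subgroup.centralizer ({uH} : Set H) with hZ
  have hmemZ : ∀ x : H, x ∈ Z ↔ (x : G) ∈ Subgroup.centralizer ({u} : Set G) := by
    intro x
    rw [hZ, Subgroup.mem_centralizer_singleton_iff, Subgroup.mem_centralizer_singleton_iff,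
      Subtype.ext_iff]
    rfl
  let e : Z ≃* K :=
    { toFun := fun x => ⟨((x : H) : G), Subgroup.mem_inf.2 ⟨(x : H).2, (hmemZ x).1 x.2⟩⟩
      invFun := fun x => ⟨⟨(x : G), (Subgroup.mem_inf.1 x.2).1⟩,
        (hmemZ _).2 (Subgroup.mem_inf.1 x.2).2⟩
      left_inv := fun x => rfl
      right_inv := fun x => rfl
      map_mul' := fun x y => rfl }
  have he : ∀ x : Z, ((e x : K) : G) = ((x : H) : G) := fun _ => rfl
  have huo : ∃ k : ℕ, orderOf uH = p ^ k := by
    obtain ⟨k, hk⟩ := hu
    exact ⟨k, by rw [← Subgroup.orderOf_coe]; exact hk⟩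
  -- blocks of `H` inducing `b`
  set I : Set (Set (IrrCharacter H)) := {β | IsInducedBlock M H β b} with hI
  have hfin : Finite (IrrCharacter H) := Characters.Core.finite_irr
  have hfinZ : Finite (IrrCharacter Z) := Characters.Core.finite_irr
  have hIU : indSet M b H = ⋃₀ I := by
    ext ψ
    rw [Set.mem_sUnion]
    constructor
    · rintro ⟨β, h1, h2⟩
      exact ⟨β, h2, h1⟩
    · rintro ⟨β, h1, h2⟩
      exact ⟨β, h2, h1⟩
  have hdisj : I.PairwiseDisjoint id := by
    intro β hβ β' hβ' hne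
    change Disjoint β β'
    rw [Set.disjoint_left]
    intro ψ h1 h2
    exact hne (isPBlock_eq_of_mem hβ.1 hβ'.1 h1 h2)
  let A : Set (IrrCharacter H) → Set (IrrCharacter Z) := fun β =>
    {ξ | IsInducedBlock M Z (blockOf M (ξ : Z → ℂ)) β}
  have hAdisj : I.PairwiseDisjoint A := by
    intro β hβ β' hβ' hne
    change Disjoint (A β) (A β')
    rw [Set.disjoint_left]
    intro ψ h1 h2
    exact hne (Blocks.CentralizerSum.inducedBlock_unique h1 h2)
  have hAU : H662.trB e (⋃ β ∈ I, A β) = indSet M b K := by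
    ext ψ
    rw [H662.mem_trB, mem_indSet_iff, Set.mem_iUnion₂]
    have hψ : H662.trB e (blockOf M ((H662.tr e.symm ψ : IrrCharacter Z) : Z → ℂ)) =
        blockOf M (ψ : K → ℂ) := by
      rw [H662.trB_blockOf, H662.tr_tr_symm]
    constructor
    · rintro ⟨β, hβ, h1⟩
      have h2 := H662.induced_trans e he h1 hβ
      rwa [hψ] at h2
    · intro h1
      obtain ⟨β, hβ⟩ := exists_induced hM huo (H662.tr e.symm ψ)
      rw [← hψ] at h1
      exact ⟨β, H662.induced_of_trans e he hβ h1, hβ⟩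
  have hyZ : (⟨y, hyH⟩ : H) ∈ Z := (hmemZ _).2 hyC
  have hord : ¬ p ∣ orderOf (⟨⟨y, hyH⟩, hyZ⟩ : Z) := by
    rw [← Subgroup.orderOf_coe, ← Subgroup.orderOf_coe]
    exact hy
  calc nrm (indSet M b H) ⟨u * y, H.mul_mem huH hyH⟩
      = ∑ᶠ β ∈ I, ∑ᶠ χ ∈ β, (χ : H → ℂ) ⟨u * y, H.mul_mem huH hyH⟩ *
          conj ((χ : H → ℂ) ⟨u * y, H.mul_mem huH hyH⟩) := by
        unfold nrm
        rw [hIU, finsum_mem_sUnion hdisj (Set.toFinite _) fun _ _ => Set.toFinite _]
    _ = ∑ᶠ β ∈ I, ∑ᶠ ξ ∈ A β, (ξ : Z → ℂ) ⟨⟨y, hyH⟩, hyZ⟩ *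
          conj ((ξ : Z → ℂ) ⟨⟨y, hyH⟩, hyZ⟩) := by
        refine finsum_mem_congr rfl fun β hβ => ?_
        exact Blocks.CentralizerSum.sum_section hM uH huo rfl hβ.1 (A := A β)
          (fun ξ => Iff.rfl) ⟨⟨y, hyH⟩, hyZ⟩ ⟨⟨y, hyH⟩, hyZ⟩ hord hord
    _ = ∑ᶠ ξ ∈ ⋃ β ∈ I, A β, (ξ : Z → ℂ) ⟨⟨y, hyH⟩, hyZ⟩ *
          conj ((ξ : Z → ℂ) ⟨⟨y, hyH⟩, hyZ⟩) := by
        rw [finsum_mem_biUnion hAdisj (Set.toFinite _) fun _ _ => Set.toFinite _]
    _ = nrm (indSet M b K) ⟨y, hyK⟩ := by
        unfold nrm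
        rw [← hAU, H662.finsum_trB]
        rfl

end Ind

/-! ### The formula -/

section Main

variable {G : Type*} [Group G] [Finite G] {p : ℕ} [Fact p.Prime] {M : Ideal AlgInt}

open Classical in
/-- `#H * (k(b_H) - l(b_H))` as a sum over `G`. -/
theorem card_mul_indSet [Fintype G] (hM : IsPModular p M) (b : Set (IrrCharacter G))
    (H : Subgroup G) :
    (Nat.card H : ℂ) * ((Nat.card (indSet M b H) : ℂ) - (blockRank p (indSet M b H) : ℂ)) =
      ∑ g : G with p ∣ orderOf g, val M b H g := by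
  have := isPrime_of_isPModular hM
  have := Fintype.ofFinite H
  rw [card_mul_diff hM (isUnionB_indSet b H)]
  have h1 : ∀ x : H, nrm (indSet M b H) x = val M b H (x : G) := fun x => (val_of_mem x.2).symm
  simp_rw [h1]
  rw [Finset.sum_filter, Finset.sum_filter]
  have h2 : ∀ x : H, (if p ∣ orderOf x then val M b H (x : G) else 0) =
      (fun g : G => if p ∣ orderOf g then val M b H g else 0) (x : G) := by
    intro x
    simp only [Subgroup.orderOf_coe]
  simp_rw [h2]
  have h3 : ∑ x : H, (fun g : G => if p ∣ orderOf g then val M b H g else 0) (x : G) =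
      ∑ g ∈ Finset.univ.map (Function.Embedding.subtype (· ∈ H)),
        (fun g : G => if p ∣ orderOf g then val M b H g else 0) g := by
    rw [Finset.sum_map]
    rfl
  rw [h3]
  refine Finset.sum_subset (Finset.subset_univ _) fun g _ hg => ?_
  have hgH : g ∉ H := by
    intro h
    apply hg
    rw [Finset.mem_map]
    exact ⟨⟨g, h⟩, Finset.mem_univ _, rfl⟩
  rw [val_of_notMem hgH]
  simp

/-- The contribution of one element. -/
theorem sum_chains_val (hM : IsPModular p M) {b : Set (IrrCharacter G)} (hb : IsPBlock M b)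
    {g : G} (hg : p ∣ orderOf g) :
    ∑ s ∈ chains p G, (-1 : ℂ) ^ (s.card - 1) * val M b (stab s) g = nrm b g := by
  obtain ⟨u, hu⟩ := Blocks.PPart.exists_isPPart p g
  obtain ⟨n, hn⟩ := Blocks.PPart.exists_pow_eq (G := G) p
  have hun : g ^ n = u := hn g u hu
  obtain ⟨y, rfl, hc, hup, hy⟩ := hu
  have hu1 : u ≠ 1 := by
    rintro rfl
    rw [one_mul] at hg
    exact hy hg
  have hP : IsPGroup p (Subgroup.zpowers u) := by
    obtain ⟨k, hk⟩ := hup
    refine IsPGroup.of_card (n := k) ?_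
    rw [Nat.card_zpowers, hk]
  have hyC : y ∈ Subgroup.centralizer ({u} : Set G) :=
    Subgroup.mem_centralizer_singleton_iff.2 hc.eq.symm
  have hmem : ∀ H : Subgroup G, u ∈ H → (u * y ∈ H ↔ y ∈ H ⊓ Subgroup.centralizer ({u} : Set G)) := by
    intro H hH
    rw [Subgroup.mem_inf]
    constructor
    · intro h
      refine ⟨?_, hyC⟩
      have := H.mul_mem (H.inv_mem hH) h
      rwa [inv_mul_cancel_left] at this
    · rintro ⟨h, -⟩
      exact H.mul_mem hH h
  have hval : ∀ H : Subgroup G, u ∈ H →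
      val M b H (u * y) = val M b (H ⊓ Subgroup.centralizer ({u} : Set G)) y := by
    intro H hH
    by_cases h : u * y ∈ H
    · have h1 := (hmem H hH).1 h
      exact val_section hM hup hy hc hH (Subgroup.mem_inf.1 h1).1
    · rw [val_of_notMem h, val_of_notMem (fun h1 => h ((hmem H hH).2 h1))]
  rw [sum_chains_eq_single p hu1 hP (fun H => val M b H (u * y))]
  · have hN : Subgroup.centralizer ({u} : Set G) ≤
        Subgroup.normalizer ((Subgroup.zpowers u : Subgroup G) : Set G) := by
      intro x hx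
      have hxu := Subgroup.mem_centralizer_singleton_iff.1 hx
      refine Subgroup.centralizer_le_normalizer _ ?_
      rw [Subgroup.mem_centralizer_iff]
      rintro w ⟨m, rfl⟩
      exact (show Commute u x from hxu.symm).zpow_left m
    rw [hval _ (Subgroup.le_normalizer (Subgroup.mem_zpowers u)), inf_eq_right.2 hN,
      nrm_section hM hb hup hy hc]
  · intro H hH
    refine val_of_notMem fun h => hH ?_
    rw [← hun]
    exact H.pow_mem h n
  · intro H H' hH hH' h
    rw [hval H hH, hval H' hH', h]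

/-- **The alternating sum formula** (S4651). -/
theorem main (hM : IsPModular p M) {b : Set (IrrCharacter G)} (hb : IsPBlock M b) :
    (Nat.card G : ℤ) * ((Nat.card b : ℤ) - (blockRank p b : ℤ)) =
      ∑ᶠ s ∈ {s : Finset (Subgroup G) | s.Nonempty ∧ (∀ Q ∈ s, ∀ R ∈ s, Q ≤ R ∨ R ≤ Q) ∧
        (∀ Q ∈ s, Q ≠ ⊥ ∧ IsPGroup p Q) ∧ ∃ T ∈ s, ∀ Q ∈ s, Q ≤ T ∧
          T ≤ Subgroup.normalizer ((Q : Subgroup G) : Set G)},
        (-1 : ℤ) ^ (s.card - 1) * (Nat.card (stab s) : ℤ) *
          ((Nat.card (indSet M b (stab s)) : ℤ) - (blockRank p (indSet M b (stab s)) : ℤ)) := by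
  classical
  have := isPrime_of_isPModular hM
  have := Fintype.ofFinite G
  have hset : {s : Finset (Subgroup G) | s.Nonempty ∧ (∀ Q ∈ s, ∀ R ∈ s, Q ≤ R ∨ R ≤ Q) ∧
        (∀ Q ∈ s, Q ≠ ⊥ ∧ IsPGroup p Q) ∧ ∃ T ∈ s, ∀ Q ∈ s, Q ≤ T ∧
          T ≤ Subgroup.normalizer ((Q : Subgroup G) : Set G)} =
      (((chains p G).filter IsNormalCh : Finset (Finset (Subgroup G))) :
        Set (Finset (Subgroup G))) := by
    ext s
    rw [Finset.mem_coe, Finset.mem_filter, mem_chains]
    constructor
    · rintro ⟨h1, h2, h3, h4⟩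
      exact ⟨⟨h1, h2, h3⟩, h4⟩
    · rintro ⟨⟨h1, h2, h3⟩, h4⟩
      exact ⟨h1, h2, h3, h4⟩
  rw [hset, finsum_mem_coe_finset]
  apply Int.cast_injective (α := ℂ)
  have hterm : ∀ s : Finset (Subgroup G), (((-1 : ℤ) ^ (s.card - 1) * (Nat.card (stab s) : ℤ) *
          ((Nat.card (indSet M b (stab s)) : ℤ) - (blockRank p (indSet M b (stab s)) : ℤ)) : ℤ) : ℂ) =
      (-1 : ℂ) ^ (s.card - 1) * ((fun H : Subgroup G => ∑ g : G with p ∣ orderOf g, val M b H g)
        (stab s)) := by
    intro s
    simp only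
    rw [← card_mul_indSet hM b (stab s)]
    push_cast
    ring
  rw [Int.cast_sum, Finset.sum_congr rfl fun s _ => hterm s,
    ← sum_chains_eq_sum_normalChains p (fun H : Subgroup G =>
      ∑ g : G with p ∣ orderOf g, val M b H g)]
  push_cast
  rw [card_mul_diff hM (isUnionB_of_isPBlock hb)]
  simp_rw [Finset.mul_sum]
  rw [Finset.sum_comm]
  refine Finset.sum_congr rfl fun g hg => ?_
  exact (sum_chains_val hM hb (Finset.mem_filter.1 hg).2).symm

end Main

end Cfsg.Agent.H643.ChainSum
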